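import Cfsg.Agent.ThCover66.NB.Facts0
import Cfsg.Agent.ThCover66.NB.Facts1
import Cfsg.Agent.ThCover66.NB.Facts2
import Cfsg.Agent.ThCover66.NB.Facts3
import Cfsg.Agent.ThCover66.NB.Facts4
import Cfsg.Agent.ThCover66.NB.Facts5
import Cfsg.Agent.ThCover66.NB.Facts6
import Cfsg.Agent.ThCover66.NB.Facts7
import Cfsg.Agent.ThCover66.NB.Facts8
import Cfsg.Agent.ThCover66.NB.Facts9
import Cfsg.Agent.ThCover66.NB.Facts10
import Cfsg.Agent.ThCover66.NB.Facts11
import Cfsg.Agent.ThCover66.NB.Facts12
import Cfsg.Agent.ThCover66.NB.Rows0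

/-! Generated: the checked certificate. -/

set_option autoImplicit false
set_option maxRecDepth 100000

namespace CfsgLib.ThCover66.NB

open CfsgLib.CosetEnum

theorem facts : FactsChecked cert.ep cert.iv cert.words cert.nr 98967 :=
  (factsUpTo98967 (factsUpTo98304 (factsUpTo90112 (factsUpTo81920 (factsUpTo73728 (factsUpTo65536 (factsUpTo57344 (factsUpTo49152 (factsUpTo40960 (factsUpTo32768 (factsUpTo24576 (factsUpTo16384 (factsUpTo8192 FactsChecked.zero)))))))))))))

theorem rows : ∀ i < cert.n, checkRow cert.ep cert.iv 98967 cert.L cert.node cert.T cert.tf cert.n i = true :=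
  RangeChecked.all (RangeChecked.app 240 240 RangeChecked.zero rows0 rfl)

theorem node_zero : cert.node 0 = 0 := by decide +kernel

theorem n_pos : 0 < cert.n := by decide +kernel

end CfsgLib.ThCover66.NB
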