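import Cfsg.Agent.ThCover66.NB.Data

/-! Generated: checks of the rows. -/

set_option autoImplicit false
set_option maxRecDepth 100000

namespace CfsgLib.ThCover66.NB

open CfsgLib.CosetEnum

theorem rows0 : allFrom (checkRow epF (fun x => x ^^^ 1) 98967 14 nodeF TF tfF 240) 0 240 = true := by
  decide +kernel

end CfsgLib.ThCover66.NB
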